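/-
Solvable signalizer functors: generation under a Frobenius group of operators, CASE 1.
Owner: helper1.
-/
import Cfsg.Agent.Sg2.Gq

set_option autoImplicit false

namespace CA.Sg2

open Cfsg CA.FG CA.BG
open CA.Sig hiding fl_ab fl_sol fl

universe u

theorem g4_aux (n : ℕ) : ∀ {G : Type u} [Group G] [Finite G] {H Z R : Subgroup G},
    Nat.card H = n → IsFrob (Z ⊔ R) Z R → Group.IsSolvable H → Z ≤ 𝒩(H) → R ≤ 𝒩(H) →
    (Nat.card H).Coprime (Nat.card (Z ⊔ R : Subgroup G)) →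
    ∀ L : Subgroup G, Z ≤ 𝒩(L) → R ≤ 𝒩(L) → H ⊓ 𝒞(R) ≤ L → ⁅H, Z⁆ ≤ L := by
  induction n using Nat.strong_induction_on with
  | _ n ih =>
  intro G _ _ H Z R hn fr sol nHZ nHR co L nLZ nLR hL
  have hY : ⁅H, Z⁆ ≤ H := comm_le_left nHZ
  have nZR : R ≤ 𝒩(Z) := fr.1.norm
  have coZ : (Nat.card H).Coprime (Nat.card Z) := co.coprime_dvd_right (Subgroup.card_dvd_of_le le_sup_left)
  have coR : (Nat.card H).Coprime (Nat.card R) := co.coprime_dvd_right (Subgroup.card_dvd_of_le le_sup_right)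
  rcases hY.lt_or_eq with hlt | heq
  · rw [← coprime_commGid nHZ coZ (Or.inl sol)]
    exact ih _ (hn ▸ card_lt_of_lt hlt) rfl fr (sol_of_le sol hY)
      (le_sup_right.trans (comm_normalIn_sup H Z).2) (norm_comm nHR nZR)
      (co.coprime_dvd_left (Subgroup.card_dvd_of_le hY)) L nLZ nLR ((inf_le_inf_right _ hY).trans hL)
  by_cases h0 : H = ⊥
  · rw [heq, h0]; exact bot_le
  obtain ⟨N, hNH, hN⟩ := minNormal_exists (A := H ⊔ Z ⊔ R) h0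
    (sup_le (sup_le Subgroup.le_normalizer nHZ) nHR)
  have nNH : H ≤ 𝒩(N) := (le_sup_left.trans le_sup_left).trans hN.norm
  have nNZ : Z ≤ 𝒩(N) := (le_sup_right.trans le_sup_left).trans hN.norm
  have nNR : R ≤ 𝒩(N) := le_sup_right.trans hN.norm
  have cN := hN.abelian (sol_of_le sol hNH)
  have L0H : L ⊓ H ≤ H := inf_le_right
  have nL0Z : Z ≤ 𝒩(L ⊓ H) := norm_inf nLZ nHZ
  have nL0R : R ≤ 𝒩(L ⊓ H) := norm_inf nLR nHR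
  have hL0 : H ⊓ 𝒞(R) ≤ L ⊓ H := le_inf hL inf_le_left
  refine le_trans ?_ (inf_le_left : L ⊓ H ≤ L)
  generalize L ⊓ H = L₀ at L0H nL0Z nL0R hL0
  have coN := co.coprime_dvd_left (Subgroup.card_dvd_of_le hNH)
  have tiN : N ⊓ (Z ⊔ R) = ⊥ := inf_eq_bot_of_cop coN
  have fr' : IsFrob ((Z /ₛ N) ⊔ (R /ₛ N)) (Z /ₛ N) (R /ₛ N) := by
    have ne : ∀ Y : Subgroup G, Y ≤ Z ⊔ R → Y ≠ ⊥ → Y /ₛ N ≠ ⊥ := fun Y hY Y0 e =>
      Y0 (le_bot_iff.1 (tiN ▸ le_inf ((quot_eq_bot_iff (hY.trans (sup_le nNZ nNR))).1 e) hY))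
    refine isFrob_sup (quot_norm _ nZR) (fun y hy y1 => ?_) (ne _ le_sup_left fr.2.1)
      (ne _ le_sup_right fr.2.2.1)
    obtain ⟨⟨a, ha'⟩, ha, rfl⟩ := mem_quot.1 hy
    have a1 : a ≠ 1 := fun e => y1 (by subst e; exact map_one (coset N))
    rw [eq_bot_iff]
    rintro w ⟨hw, hc⟩
    obtain ⟨⟨z, hz'⟩, hz, rfl⟩ := mem_quot.1 hw
    have hc' := Subgroup.mem_centralizer_singleton_iff.1 hc
    rw [← map_mul, ← map_mul, coset_eq_iff] at hc'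
    have h1 : ((z * a)⁻¹ * (a * z) : G) ∈ N ⊓ (Z ⊔ R) := ⟨hc', by
      have e1 : z ∈ Z ⊔ R := Subgroup.mem_sup_left hz
      have e2 : a ∈ Z ⊔ R := Subgroup.mem_sup_right ha
      exact (Z ⊔ R).mul_mem ((Z ⊔ R).inv_mem ((Z ⊔ R).mul_mem e1 e2)) ((Z ⊔ R).mul_mem e2 e1)⟩
    rw [tiN, Subgroup.mem_bot, inv_mul_eq_one] at h1
    have h2 : z ∈ Z ⊓ 𝒞[a] := ⟨hz, Subgroup.mem_centralizer_singleton_iff.2 h1⟩
    rw [fr.2.2.2 a ha a1, Subgroup.mem_bot] at h2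
    subst h2
    exact map_one (coset N)
  have hq : ⁅H /ₛ N, Z /ₛ N⁆ ≤ L₀ /ₛ N := by
    refine ih _ (hn ▸ card_quot_lt_of_normal ⟨hNH, nNH⟩ hN.ne_bot) rfl fr' (sol_quot _ sol)
      (quot_norm _ nHZ) (quot_norm _ nHR) (by rw [← quot_sup nNZ nNR]; exact coprime_quot _ co) _
      (quot_norm _ nL0Z) (quot_norm _ nL0R) ?_
    rw [← coprime_quotient_cent hNH nNR coR (Or.inl sol)]
    exact quot_mono _ hL0
  rw [← quot_comm nNH nNZ, heq, quot_le_quot_iff nNH (L0H.trans nNH)] at hq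
  have nI : H ⊔ Z ⊔ R ≤ 𝒩(N ⊓ L₀) := by
    refine sup_le (sup_le (hq.trans (sup_le ?_ ?_)) (norm_inf nNZ nL0Z)) (norm_inf nNR nL0R)
    · exact norm_of_le_abelian cN inf_le_left
    · exact norm_inf (L0H.trans nNH) Subgroup.le_normalizer
  rcases hN.eq_bot_or_eq inf_le_left nI with h | h
  · have cNZ : N ≤ 𝒞(Z) := by
      apply le_cent_symm
      by_contra hc
      refine Frobenius_rfix_compl fr cN (sup_le nNZ nNR)
        (coN.coprime_dvd_right (Subgroup.card_dvd_of_le le_sup_left)) hc ?_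
      rw [← le_bot_iff, ← h]
      exact le_inf inf_le_left ((inf_le_inf_right _ hNH).trans hL0)
    refine (Subgroup.commutator_mono hq le_rfl).trans ?_
    rw [sup_comm, comm_sup_left_of_cent' (L0H.trans nNH) cNZ]
    exact comm_le_left nL0Z
  · rw [heq]
    exact hq.trans (sup_le (h ▸ inf_le_right) le_rfl)

/-- `[H, Z] ≤ ⟨C_H(R) ^ Z⟩` for a Frobenius group `Z R` of coprime operators. -/
theorem g4 {G : Type u} [Group G] [Finite G] {H Z R L : Subgroup G} (fr : IsFrob (Z ⊔ R) Z R)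
    (sol : Group.IsSolvable H) (nZ : Z ≤ 𝒩(H)) (nR : R ≤ 𝒩(H))
    (co : (Nat.card H).Coprime (Nat.card (Z ⊔ R : Subgroup G))) (nLZ : Z ≤ 𝒩(L)) (nLR : R ≤ 𝒩(L))
    (h : H ⊓ 𝒞(R) ≤ L) : ⁅H, Z⁆ ≤ L :=
  g4_aux _ rfl fr sol nZ nR co L nLZ nLR h

namespace SF

variable {X : Type u} [Group X] [Finite X] {F : SF X} {q r t : ℕ}

theorem MaxQ.exists_ZD {S : Subgroup X} (hS : F.MaxQ q S) (h0 : S ≠ ⊥) :
    ∃ Z B, F.ZD q S Z B ∧ (Z ≤ 𝒞(F.A) ∨ 𝒵(S) ⊓ 𝒞(F.A) = ⊥) := by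
  have nZ : F.A ≤ 𝒩(𝒵(S)) := norm_inf hS.mem.nA (norm_cent hS.mem.nA)
  have cS : ∀ Y : Subgroup X, S ≤ 𝒞(𝒵(S) ⊓ Y) := fun Y => le_cent_symm (inf_le_left.trans inf_le_right)
  by_cases h : 𝒵(S) ⊓ 𝒞(F.A) = ⊥
  · obtain ⟨B, hB, h1⟩ := (hS.mem.of_le inf_le_left nZ).exists_ln (center_nil_ne_bot hS.pg.nil h0)
    exact ⟨_, B, ⟨hS, inf_le_left.trans inf_le_left, cS _,
      norm_inf nZ (norm_cent (norm_of_le_abelian cA hB.1)), h1, hB, inf_le_right⟩, Or.inr h⟩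
  · obtain ⟨a, ha⟩ := SF.exists_pt (F := F)
    obtain ⟨B, hB, -⟩ := ha.exists_ln ha
    exact ⟨_, B, ⟨hS, inf_le_left.trans inf_le_left, cS _, norm_inf nZ (norm_cent Subgroup.le_normalizer),
      h, hB, inf_le_right.trans (cent_anti hB.1)⟩, Or.inl inf_le_right⟩

namespace ZD

variable {S Z B : Subgroup X} (d : F.ZD q S Z B)
include d

theorem Xs_le (hF : F.Ctx) (h2 : Z ⊓ 𝒞(F.A) = ⊥) {x : X} (hx : F.Pt x) (xB : x ∉ B) {H : Subgroup X}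
    (nH : F.A ≤ 𝒩(H)) (hZ : Z ≤ H) (h : F.Xs q Z B ⊓ 𝒞[x] ≤ H) : F.Xs q Z B ≤ H := by
  have nZ : Subgroup.zpowers x ≤ 𝒩(Z) := hx.zle.trans d.nA
  have sd : SDProd Z (Subgroup.zpowers x) (Z ⊔ Subgroup.zpowers x) :=
    sdprod_mk nZ rfl (inf_eq_bot_of_cop (d.mem.cop hx.zle))
  have fr : IsFrob (Z ⊔ Subgroup.zpowers x) Z (Subgroup.zpowers x) := by
    refine (prime_FrobeniusP d.ne (hx.card ▸ F.hp)).2 ⟨sd, ?_⟩
    rw [← le_bot_iff, ← h2, ← d.ln.sup_eq hx.1 xB, cent_sup]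
    exact le_inf inf_le_left (le_inf (inf_le_left.trans d.cB) inf_le_right)
  rw [← d.Xs_comm]
  refine g4 fr (d.Xs_mem hF).sol Xs_nZ (hx.zle.trans d.Xs_nA) ?_ (norm_of_le hZ) (hx.zle.trans nH)
    (by rw [cent_zpowers]; exact h)
  rw [← sd.card_mul]
  exact Nat.Coprime.mul_right (d.pg.coprime (d.Xs_pi hF)).symm ((d.Xs_mem hF).cop hx.zle)

theorem nB : S ⊓ 𝒞(B) ≤ 𝒩(F.Xs q Z B) :=
  norm_iSup fun _ => norm_iSup fun hb =>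
    norm_comm ((d.max.mem.le_T.trans (T_le hb.1 hb.2)).trans (pcore_norm _ _))
      (inf_le_left.trans (norm_of_cent d.cS))

theorem n_of_le (hF : F.Ctx) {H : Subgroup X} (h : F.Mem H) (hC : F.C ≤ H) (hZ : Z ≤ H)
    (hX : F.Xs q Z B ≤ H) : S ⊓ H ≤ 𝒩(F.Xs q Z B) := by
  rw [d.Xs_eq hF h hC hZ hX]
  exact norm_comm (inf_le_right.trans (pcore_norm _ _)) (inf_le_left.trans (norm_of_cent d.cS))

theorem Xs_le_NT (hF : F.Ctx) (h2 : Z ⊓ 𝒞(F.A) = ⊥) {x : X} (hx : F.Pt x) (xB : x ∉ B) {V : Subgroup X}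
    (mV : F.Mem V) (qV : IsPGrp q V) (V0 : V ≠ ⊥) (nV : F.θ x ≤ 𝒩(V)) : F.Xs q Z B ≤ F.NT V :=
  d.Xs_le hF h2 hx xB (hF.nt V mV V0).nA
    (d.mem.le_NT (norm_of_cent' ((hF.le_maxQ d.hq d.max mV qV ((C_le hx).trans nV)).trans d.cS)))
    (((d.Xs_mem hF).le x hx).trans (hx.mem.le_NT nV))

theorem n_pt (hF : F.Ctx) (h2 : Z ⊓ 𝒞(F.A) = ⊥) {x : X} (hx : F.Pt x) (xB : x ∉ B) {V : Subgroup X}
    (mV : F.Mem V) (qV : IsPGrp q V) (V0 : V ≠ ⊥) (nV : F.θ x ≤ 𝒩(V)) :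
    S ⊓ 𝒞[x] ≤ 𝒩(F.Xs q Z B) :=
  (le_inf inf_le_left ((d.max.mem.le x hx).trans (hx.mem.le_NT nV))).trans
    (d.n_of_le hF (hF.nt V mV V0) ((C_le hx).trans (hx.mem.le_NT nV))
      (d.mem.le_NT (norm_of_cent' ((hF.le_maxQ d.hq d.max mV qV ((C_le hx).trans nV)).trans d.cS)))
      (d.Xs_le_NT hF h2 hx xB mV qV V0 nV))

theorem case1' (hF : F.Ctx) (h2 : Z ≤ 𝒞(F.A) ∨ 𝒵(S) ⊓ 𝒞(F.A) = ⊥)
    (h : ∀ a, F.Pt a → ∃ V, F.Mem V ∧ IsPGrp q V ∧ V ≠ ⊥ ∧ F.θ a ≤ 𝒩(V)) : PC F q Z := by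
  refine d.case1 hF ?_ h
  rcases h2 with h2 | h2
  · exact d.nS_of_cent hF h2
  have h3 : Z ⊓ 𝒞(F.A) = ⊥ :=
    le_bot_iff.1 (h2 ▸ inf_le_inf_right _ (le_inf d.le (le_cent_symm d.cS)))
  refine d.max.mem.genL fun l hl => ?_
  by_cases e : l ≤ B
  · rw [Subgroup.eq_of_le_of_card_ge e (by rw [hl.2, d.ln.2])]
    exact d.nB
  · obtain ⟨x, xl, xB⟩ := SetLike.not_le_iff_exists.1 e
    have hx : F.Pt x := ⟨hl.1 xl, fun e => xB (e ▸ B.one_mem)⟩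
    obtain ⟨V, mV, qV, V0, nV⟩ := h x hx
    exact (inf_le_inf_left _ (cent_le_cent_singleton xl)).trans (d.n_pt hF h3 hx xB mV qV V0 nV)

end ZD

end SF

end CA.Sg2
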