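/-
Solvable signalizer functors: good points.
Owner: helper1.
-/
import Cfsg.Agent.Sg2.Case1

set_option autoImplicit false

namespace CA.Sg2

open Cfsg CA.FG CA.BG
open CA.Sig hiding fl_ab fl_sol fl

universe u

namespace SF

variable {X : Type u} [Group X] [Finite X] {F : SF X} {q r s t : ℕ}

/-- `C_θ(Z)` -/
def K0 (F : SF X) (Z : Subgroup X) : Subgroup X := F.NT Z ⊓ 𝒞(Z)

/-- `X* O_{q'}(C_θ(Z))` -/
def G' (F : SF X) (q : ℕ) (Z B : Subgroup X) : Subgroup X := F.Xs q Z B ⊔ pPrimeCoreOf q (F.K0 Z)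

theorem MaxQ.sylow {S H : Subgroup X} (hq : q.Prime) (hS : F.MaxQ q S) (h : F.Mem H) (hle : S ≤ H) :
    IsSylowOf q S H := by
  obtain ⟨R, h1, h2, h3⟩ := h.exists_sylow hq hle hS.pg hS.mem.nA
  rwa [hS.max R h2 h1.pGrp h3] at h1

namespace ZD

variable {S Z B : Subgroup X} (d : F.ZD q S Z B)
include d

theorem K0_mem (hF : F.Ctx) : F.Mem (F.K0 Z) := (hF.nt Z d.mem d.ne).inf (norm_cent d.nA)

omit d in
theorem le_K0 {H : Subgroup X} (h : F.Mem H) (c : H ≤ 𝒞(Z)) : H ≤ F.K0 Z :=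
  le_inf (h.le_NT (norm_of_cent c)) c

theorem S_le_K0 : S ≤ F.K0 Z := le_K0 d.max.mem d.cS

theorem le_comm_sup {D : Subgroup X} (qD : IsPiGrp {q}ᶜ D) (n : Z ≤ 𝒩(D)) : D ≤ ⁅D, Z⁆ ⊔ (D ⊓ 𝒞(Z)) :=
  (coprime_cent_prod n (d.pg.coprime qD).symm (Or.inr d.pg.sol)).ge

theorem core_NT_le' (hF : F.Ctx) {V : Subgroup X} (hV : V ≤ S) (nV : F.A ≤ 𝒩(V))
    (V0 : V ≠ ⊥) : pPrimeCoreOf q (F.NT V) ≤ F.G' q Z B := by
  have mV := d.max.mem.of_le hV nV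
  have mH := hF.nt V mV V0
  have cZV : Z ≤ 𝒞(V) := le_cent_symm (hV.trans d.cS)
  have hZ : Z ≤ F.NT V := d.mem.le_NT (norm_of_cent cZV)
  have nD : Z ≤ 𝒩(pPrimeCoreOf q (F.NT V)) := hZ.trans (pcore_norm _ _)
  refine (d.le_comm_sup (pcore_piGrp _ _) nD).trans
    (sup_le_sup (d.comm_le_Xs hF (mH.pcore _) (pcore_piGrp _ _) nD) ?_)
  have mK := d.K0_mem hF
  refine gold mK.sol (hV.trans d.S_le_K0) (d.max.pg.of_le hV) (le_inf ?_ ?_) ?_
    ((pcore_piGrp _ _).inf_left _)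
  · exact le_K0 ((mH.pcore _).inf (norm_cent d.nA)) inf_le_right
  · exact inf_le_left.trans ((pcore_le _ _).trans (NT_le V))
  · exact norm_inf (((mK.inf (norm_norm nV)).le_NT inf_le_right).trans (pcore_norm _ _))
      (norm_of_le (inf_le_left.trans inf_le_right))

theorem pc_of_G' (hF : F.Ctx) (h : F.G' q Z B = ⊥) : PC F q Z := by
  intro M hM hC hZ
  have nD : Z ≤ 𝒩(pPrimeCoreOf q M) := hZ.trans (pcore_norm _ _)
  have c1 : Z ≤ 𝒞(pPrimeCoreOf q M) := by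
    rw [← comm_eq_bot_iff', ← le_bot_iff, ← h]
    exact (d.comm_le_Xs hF (hM.mem.pcore _) (pcore_piGrp _ _) nD).trans le_sup_left
  have mP := hM.mem.pcore {q}
  have PS : pCoreOf q M ≤ S := hF.le_maxQ d.hq d.max mP (pcore_pGrp _ _) (hC.trans (pcore_norm _ _))
  have ZP := zc hM.mem.sol hZ d.pg (le_cent_symm (PS.trans d.cS)) c1
  have P0 := ne_bot_mono ZP d.ne
  have := d.core_NT_le' hF PS mP.nA P0
  rwa [hF.NT_eq hM mP P0 (pcore_norm _ _), h, le_bot_iff] at this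

theorem n_of_cent (hF : F.Ctx) (cA : Z ≤ 𝒞(F.A)) {H : Subgroup X} (h : F.Mem H) (c : H ≤ 𝒞(Z)) :
    H ≤ 𝒩(F.Xs q Z B) := by
  refine h.genL fun l hl => ?_
  have d' : F.ZD q S Z l := ⟨d.max, d.le, d.cS, d.nA, d.ne, hl, cA.trans (cent_anti hl.1)⟩
  have e : F.Xs q Z B = F.Xs q Z l := le_antisymm
    (by rw [← d.Xs_comm]; exact d'.comm_le_Xs hF (d.Xs_mem hF) (d.Xs_pi hF) Xs_nZ)
    (by rw [← d'.Xs_comm]; exact d.comm_le_Xs hF (d'.Xs_mem hF) (d'.Xs_pi hF) Xs_nZ)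
  rw [e]
  exact norm_iSup fun b => norm_iSup fun hb =>
    norm_comm ((h.le_T.trans (T_le hb.1 hb.2)).trans (pcore_norm _ _))
      (inf_le_left.trans (norm_of_cent c))

theorem G_eq (hF : F.Ctx) (cA : Z ≤ 𝒞(F.A)) : F.G q S = F.G' q Z B := by
  have mG := hF.G_mem d.max d.S0
  have pG := hF.G_pi d.max d.S0
  have mK := d.K0_mem hF
  refine le_antisymm ((d.le_comm_sup pG (d.le.trans (G_nS q S))).trans
    (sup_le_sup (d.comm_le_Xs hF mG pG (d.le.trans (G_nS q S))) ?_))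
    (sup_le ((d.Xs_mem hF).le_G (d.Xs_pi hF) (d.nS_of_cent hF cA))
      ((mK.pcore _).le_G (pcore_piGrp _ _) (d.S_le_K0.trans (pcore_norm _ _))))
  exact le_core_of_sylow_norm mK.sol (d.max.sylow d.hq mK d.S_le_K0)
    (le_K0 (mG.inf (norm_cent d.nA)) inf_le_right) (pG.inf_left _)
    (norm_inf (G_nS q S) (norm_of_le d.cS))

theorem K0_norm (hF : F.Ctx) (cA : Z ≤ 𝒞(F.A)) : F.K0 Z ≤ 𝒩(F.G q S) := by
  rw [d.G_eq hF cA]
  exact norm_sup (d.n_of_cent hF cA (d.K0_mem hF) inf_le_right) (pcore_norm _ _)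

theorem Δ_le_G' (hF : F.Ctx) {l : Subgroup X} (hl : F.Ln l) (cA : Z ≤ 𝒞(F.A)) :
    F.Δ {q}ᶜ l ≤ F.G' q Z B := by
  have nZ : Z ≤ 𝒩(F.Δ {q}ᶜ l) := ((le_inf le_rfl cA).trans d.mem.le_C).trans (Δ_nC _ _)
  refine (d.le_comm_sup (hl.Δ_pi _) nZ).trans
    (sup_le_sup (d.comm_le_Xs hF (hl.Δ_mem _) (hl.Δ_pi _) nZ) ?_)
  exact hl.Δ_core (d.K0_mem hF) (le_K0 ((hl.Δ_mem _).inf (norm_cent d.nA)) inf_le_right) inf_le_left

theorem Xs_cent_Y (hF : F.Ctx) (h2 : Z ⊓ 𝒞(F.A) = ⊥) : F.Xs q Z B ≤ 𝒞(F.Y {q}) := by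
  refine le_cent_symm (iSup₂_le fun l hl => le_cent_symm ?_)
  by_cases h0 : F.Δ {q} l = ⊥
  · rw [h0, cent_bot]; exact le_top
  by_cases e : l ≤ B
  · rw [Subgroup.eq_of_le_of_card_ge e (by rw [hl.2, d.ln.2])]
    refine iSup₂_le fun b hb => ?_
    exact ((comm_le_left ((d.le_θ hb.1 hb.2).trans (pcore_norm _ _))).trans
      (le_cent_symm (pcore_cent_compl {q} _))).trans (cent_anti (Δ_le hb.1 hb.2))
  · obtain ⟨x, xl, xB⟩ := SetLike.not_le_iff_exists.1 e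
    have hx : F.Pt x := ⟨hl.1 xl, fun e => xB (e ▸ B.one_mem)⟩
    have mV := hx.mem.pcore {q}
    have V0 := ne_bot_mono (Δ_le hx xl) h0
    have h1 := d.Xs_le_NT hF h2 hx xB mV (pcore_pGrp _ _) V0 (pcore_norm _ _)
    have h3 : F.Xs q Z B ≤ 𝒞(pCoreOf q (F.θ x)) := by
      have mH := hF.nt _ mV V0
      have hZ : Z ≤ F.NT (pCoreOf q (F.θ x)) := d.mem.le_NT (norm_of_cent'
        ((hF.le_maxQ d.hq d.max mV (pcore_pGrp _ _) ((C_le hx).trans (pcore_norm _ _))).trans d.cS))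
      rw [d.Xs_eq hF mH ((C_le hx).trans (hx.mem.le_NT (pcore_norm _ _))) hZ h1]
      refine ((comm_le_left (hZ.trans (pcore_norm _ _))).trans
        (le_cent_symm (pcore_cent_compl {q} _))).trans (cent_anti ?_)
      exact pcore_max ⟨mV.le_NT Subgroup.le_normalizer, NT_le _⟩ (pcore_pGrp _ _)
    exact h3.trans (cent_anti (Δ_le hx xl))

theorem G_pt (hF : F.Ctx) (nX : S ≤ 𝒩(F.Xs q Z B)) {a : X} (ha : F.Pt a) {V : Subgroup X} (mV : F.Mem V)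
    (qV : IsPGrp q V) (V0 : V ≠ ⊥) (nV : F.θ a ≤ 𝒩(V)) : F.θ a ≤ 𝒩(F.G q S ⊓ 𝒞[a]) := by
  have mG := hF.G_mem d.max d.S0
  have e := d.core_NT_eq hF nX mV qV ((C_le ha).trans nV) V0
  have h2 : F.θ a ≤ F.NT V := ha.mem.le_NT nV
  have e2 : F.G q S ⊓ 𝒞[a] = pPrimeCoreOf q (F.NT V) ⊓ 𝒞[a] := by
    rw [e]
    exact le_antisymm (le_inf (le_inf inf_le_left ((mG.le a ha).trans h2)) inf_le_right)
      (inf_le_inf_right _ inf_le_left)
  rw [e2]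
  exact norm_inf (h2.trans (pcore_norm _ _)) (norm_of_le ha.cent)

end ZD

/-- `a` is good for `t`, witnessed by `U` -/
structure Gd (F : SF X) (t : ℕ) (a : X) (U : Subgroup X) : Prop where
  pt : F.Pt a
  mem : F.Mem U
  pg : IsPGrp t U
  ne : U ≠ ⊥
  n : F.θ a ≤ 𝒩(U)
  eq : ⁅U, Subgroup.zpowers a⁆ = U
  odd : t ≠ 2 ∨ IsMulCommutative U

theorem Mem.gd {V : Subgroup X} {a : X} (h : F.Mem V) (ha : F.Pt a) (tV : IsPGrp t V) (n : F.θ a ≤ 𝒩(V))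
    (ht : t ≠ 2 ∨ IsMulCommutative V) (h0 : ¬ V ≤ 𝒞[a]) : F.Gd t a ⁅V, Subgroup.zpowers a⁆ :=
  ⟨ha, h.comm_mem ha, tV.of_le (h.comm_le ha), fun e => h0 (by rwa [comm_eq_bot_iff, cent_zpowers] at e),
    norm_comm n (norm_zpowers_of_cent ha.cent), h.comm_id ha,
    ht.imp_right fun c => abelian_of_le c (h.comm_le ha)⟩

namespace Gd

variable {a : X} {U : Subgroup X} (g : F.Gd t a U)
include g

theorem ht : t.Prime := g.pg.prime g.ne

theorem le_Y : U ≤ F.Y {t} := g.eq ▸ g.mem.comm_le_Y g.pt g.pg g.n g.odd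

omit [Finite X] in
theorem nC : F.C ≤ 𝒩(U) := (C_le g.pt).trans g.n

theorem le_core {H : Subgroup X} (h : F.Mem H) (hU : U ≤ H) : U ≤ pCoreOf t H :=
  g.eq ▸ h.fl g.pt hU g.pg g.mem.nA ((h.le a g.pt).trans g.n) g.odd

theorem cent {D : Subgroup X} (h : F.Mem D) (tD : IsPiGrp {t}ᶜ D) (n : U ≤ 𝒩(D)) : D ≤ 𝒞(U) := by
  have m := h.sup g.mem n
  have h1 : D ≤ pPrimeCoreOf t (D ⊔ U) := pcore_max ⟨le_sup_left, sup_le Subgroup.le_normalizer n⟩ tD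
  exact (h1.trans (le_cent_symm (pcore_cent_compl {t} _))).trans (cent_anti (g.le_core m le_sup_right))

theorem core_eq (hF : F.Ctx) {S Z B M : Subgroup X} (d : F.ZD t S Z B)
    (h2 : Z ≤ 𝒞(F.A) ∨ 𝒵(S) ⊓ 𝒞(F.A) = ⊥) (hM : F.MaxM M) (hU : F.NT U ≤ M) :
    pPrimeCoreOf t M = F.G' t Z B := by
  have US : U ≤ S := hF.le_maxQ g.ht d.max g.mem g.pg g.nC
  have UM : U ≤ M := (g.mem.le_NT Subgroup.le_normalizer).trans hU
  have CM : F.C ≤ M := (mem_C.le_NT g.nC).trans hU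
  have mP := hM.mem.pcore {t}
  have P0 := ne_bot_mono (g.le_core hM.mem UM) g.ne
  have PS : pCoreOf t M ≤ S := hF.le_maxQ d.hq d.max mP (pcore_pGrp _ _) (CM.trans (pcore_norm _ _))
  have ZM : Z ≤ M := (d.mem.le_NT (norm_of_cent' (US.trans d.cS))).trans hU
  refine le_antisymm ?_ (sup_le ?_ ?_)
  · have := d.core_NT_le' hF PS mP.nA P0
    rwa [hF.NT_eq hM mP P0 (pcore_norm _ _)] at this
  · have cX : F.Xs t Z B ≤ 𝒞(U) := by
      rcases h2 with h2 | h2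
      · exact g.cent (d.Xs_mem hF) (d.Xs_pi hF) (US.trans (d.nS_of_cent hF h2))
      · exact (d.Xs_cent_Y hF (le_bot_iff.1 (h2 ▸ inf_le_inf_right _
          (le_inf d.le (le_cent_symm d.cS))))).trans (cent_anti g.le_Y)
    rw [d.Xs_eq hF hM.mem CM ZM (((d.Xs_mem hF).le_NT (norm_of_cent cX)).trans hU)]
    exact comm_le_left (ZM.trans (pcore_norm _ _))
  · have mO := (d.K0_mem hF).pcore {t}ᶜ
    have nO : S ≤ 𝒩(pPrimeCoreOf t (F.K0 Z)) := d.S_le_K0.trans (pcore_norm _ _)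
    have OM := (mO.le_NT (norm_of_cent (g.cent mO (pcore_piGrp _ _) (US.trans nO)))).trans hU
    exact (le_inf le_rfl OM).trans (hF.inf_le_core g.ht d.max (pcore_piGrp _ _) nO hM.mem CM)

end Gd

/-- the negation of all `PC(q)` -/
def NoPC (F : SF X) : Prop := ∀ q S Z B, F.ZD q S Z B → ¬ ZD.PC F q Z

theorem Gd.core_ne {a : X} {U M : Subgroup X} (g : F.Gd t a U) (hF : F.Ctx) (hN : F.NoPC) (hM : F.MaxM M)
    (hU : F.NT U ≤ M) : pPrimeCoreOf t M ≠ ⊥ := by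
  obtain ⟨S, hS, US⟩ := g.mem.exists_maxQ g.pg
  obtain ⟨Z, B, d, h2⟩ := hS.exists_ZD (ne_bot_mono US g.ne)
  rw [g.core_eq hF d h2 hM hU]
  exact fun e => hN _ _ _ _ d (d.pc_of_G' hF e)

theorem Gd.unique {a a' : X} {U U' L M : Subgroup X} (g : F.Gd t a U) (g' : F.Gd s a' U') (hF : F.Ctx)
    (hN : F.NoPC) (hL : F.MaxM L) (hU : F.NT U ≤ L) (hM : F.MaxM M) (hU' : F.NT U' ≤ M) : M = L := by
  have L0 := g.core_ne hF hN hL hU
  by_cases e : s = t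
  · subst e
    obtain ⟨S, hS, US⟩ := g.mem.exists_maxQ g.pg
    obtain ⟨Z, B, d, h2⟩ := hS.exists_ZD (ne_bot_mono US g.ne)
    have e : piCoreOf {s}ᶜ M = piCoreOf {s}ᶜ L := (g'.core_eq hF d h2 hM hU').trans (g.core_eq hF d h2 hL hU).symm
    have mE := hL.mem.pcore {s}ᶜ
    exact (hF.NT_eq hM mE L0 (e ▸ pcore_norm _ _)).symm.trans (hF.NT_eq hL mE L0 (pcore_norm _ _))
  have c : U ≤ 𝒞(U') := (g.le_Y.trans (Y_cent (by simpa using Ne.symm e))).trans (cent_anti g'.le_Y)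
  have UM : U ≤ M := (g.mem.le_NT (norm_of_cent c)).trans hU'
  have UL : U ≤ L := (g.mem.le_NT Subgroup.le_normalizer).trans hU
  have U'L : U' ≤ L := (g'.mem.le_NT (norm_of_cent' c)).trans hU
  have U'M : U' ≤ M := (g'.mem.le_NT Subgroup.le_normalizer).trans hU'
  refine hF.ben hM hL g.ne (g.le_core hM.mem UM) (g.le_core hL.mem UL)
    (((hM.mem.inf (norm_norm g.mem.nA)).le_NT inf_le_right).trans hU) L0 fun r hr rt => ?_
  by_cases rs : r = s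
  · subst rs
    have mT := hM.mem.pcore {t}
    have nZ : M ≤ 𝒩(𝒵(pCoreOf t M)) := norm_inf (pcore_norm _ _) (norm_cent (pcore_norm _ _))
    have mZ : F.Mem 𝒵(pCoreOf t M) := mT.inf (norm_cent mT.nA)
    have Z0 : 𝒵(pCoreOf t M) ≠ ⊥ :=
      center_nil_ne_bot (pcore_pGrp _ _).nil (ne_bot_mono (g.le_core hM.mem UM) g.ne)
    have ZL : 𝒵(pCoreOf t M) ≤ L :=
      (mZ.le_NT (norm_of_cent (inf_le_right.trans (cent_anti (g.le_core hM.mem UM))))).trans hU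
    have h1 : 𝒵(pCoreOf t M) ≤ pPrimeCoreOf r L := by
      refine gold hL.mem.sol U'L g'.pg (le_inf ZL (norm_of_cent ?_)) ?_
        (((pcore_pGrp t M).inf_left _).mono (compl_sub (Ne.symm rt)))
      · exact (inf_le_left.trans (pcore_cent_of_disjoint (by simpa using Ne.symm rt) M)).trans
          (cent_anti (g'.le_core hM.mem U'M))
      · exact (((hL.mem.inf (norm_norm g'.mem.nA)).le_NT inf_le_right).trans hU').trans nZ
    exact hF.le_of_norm hM mZ Z0 nZ (hL.mem.pcore _)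
      (norm_of_cent ((pcore_cent_compl {r} L).trans (cent_anti h1)))
  · exact ((hL.mem.pcore _).le_NT (norm_of_cent ((pcore_cent_of_disjoint (by simpa using rs) L).trans
      (cent_anti (g'.le_core hL.mem U'L))))).trans hU'

end SF

theorem realizeEqns_Sg2Good : True := by
  have := @CA.Sg2.SF.G'.eq_1.{0}
  have := @CA.Sg2.SF.G'.eq_def.{0}
  have := @CA.Sg2.SF.G'.congr_simp.{0}
  have := @CA.Sg2.SF.K0.eq_1.{0}
  have := @CA.Sg2.SF.K0.eq_def.{0}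
  have := @CA.Sg2.SF.K0.congr_simp.{0}
  have := @CA.Sg2.SF.NoPC.eq_1.{0}
  have := @CA.Sg2.SF.NoPC.eq_def.{0}
  have := @CA.Sg2.SF.NoPC.congr_simp.{0}
  trivial

end CA.Sg2
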