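/-
Solvable signalizer functors: bad points; reduction to `PC(q)`.
Owner: helper1.
-/
import Cfsg.Agent.Sg2.Good

set_option autoImplicit false

namespace CA.Sg2

open Cfsg CA.FG CA.BG
open CA.Sig hiding fl_ab fl_sol fl

universe u

namespace SF

variable {X : Type u} [Group X] [Finite X] {F : SF X} {q r s t : ℕ}

/-- bad points -/
def Bad (F : SF X) (x : X) : Prop := F.Pt x ∧ ∀ t U, ¬ F.Gd t x U

theorem Bad.cent {x : X} (b : F.Bad x) {V : Subgroup X} (h : F.Mem V) (tV : IsPGrp t V)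
    (n : F.θ x ≤ 𝒩(V)) (ht : t ≠ 2 ∨ IsMulCommutative V) : V ≤ 𝒞[x] :=
  by_contra fun hc => b.2 _ _ (h.gd b.1 tV n ht hc)

theorem Mem.cent_of_fit {H : Subgroup X} {x : X} (h : F.Mem H) (hx : F.Pt x)
    (c : ∀ r, r.Prime → pCoreOf r H ≤ 𝒞[x]) : H ≤ 𝒞[x] := by
  have h1 : fittingOf H ≤ 𝒞[x] := fitting_le_of_forall_pcore c
  rw [← cent_zpowers] at h1 ⊢
  exact le_cent_symm ((le_inf le_rfl (le_cent_symm h1)).trans
    (coprime_cent_Fitting (hx.zle.trans h.nA) (h.cop hx.zle) h.sol))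

theorem Bad.odd {x : X} (b : F.Bad x) {M : Subgroup X} (h : F.Mem M) (hx : F.θ x ≤ M) (hr : r ≠ 2) :
    pCoreOf r M ≤ 𝒞[x] :=
  b.cent (h.pcore _) (pcore_pGrp _ _) (hx.trans (pcore_norm _ _)) (Or.inl hr)

theorem Bad.two (hF : F.Ctx) {x : X} (b : F.Bad x) {M : Subgroup X} (h : F.MaxM M) (hx : F.θ x ≤ M) :
    pCoreOf 2 M ≠ ⊥ := by
  intro h0
  have h1 : M ≤ 𝒞[x] := h.mem.cent_of_fit b.1 fun r _ => by
    by_cases e : r = 2
    · rw [e, h0]; exact bot_le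
    · exact b.odd h.mem hx e
  have e : M = F.θ x := le_antisymm ((le_inf le_rfl h1).trans (h.mem.le x b.1)) hx
  exact hF.not_max b.1 (e ▸ h)

theorem Bad.two' {x : X} (b : F.Bad x) {M : Subgroup X} (h : F.Mem M) (hx : F.θ x ≤ M) :
    pPrimeCoreOf 2 M ≤ 𝒞[x] :=
  (h.pcore _).cent_of_fit b.1 fun r _ => by
    by_cases e : r = 2
    · rw [e]; exact (pcore_eq_bot_of_piGrp (π := {2}) (pcore_piGrp {2}ᶜ M)).le.trans bot_le
    · exact ((pcore_normal {2}ᶜ M).pcore_le {r}).trans (b.odd h hx e)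

theorem Bad.centZ (hF : F.Ctx) {x : X} (b : F.Bad x) {S : Subgroup X} (hS : F.MaxQ 2 S) : 𝒵(S) ≤ 𝒞[x] := by
  obtain ⟨M, hM, hx⟩ := b.1.mem.exists_maxM
  have mP := hM.mem.pcore {2}
  have P0 := b.two hF hM hx
  have PS : pCoreOf 2 M ≤ S := hF.le_maxQ Nat.prime_two hS mP (pcore_pGrp _ _)
    (((C_le b.1).trans hx).trans (pcore_norm _ _))
  have mZ : F.Mem 𝒵(S) := hS.mem.inf (norm_cent hS.mem.nA)
  have cZ : 𝒵(S) ≤ 𝒞(pCoreOf 2 M) := inf_le_right.trans (cent_anti PS)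
  have ZM : 𝒵(S) ≤ M := hF.le_of_norm hM mP P0 (pcore_norm _ _) mZ (norm_of_cent cZ)
  have h1 : ⁅𝒵(S), Subgroup.zpowers x⁆ ≤ 𝒵(S) := mZ.comm_le b.1
  have h2 : ⁅𝒵(S), Subgroup.zpowers x⁆ ≤ 𝒞(pPrimeCoreOf 2 M) := by
    have : Subgroup.zpowers x ≤ 𝒞(pPrimeCoreOf 2 M) := by
      apply le_cent_symm; rw [cent_zpowers]; exact b.two' hM.mem hx
    exact (Subgroup.commutator_mono le_rfl this).trans
      (comm_le_right (norm_cent (ZM.trans (pcore_norm _ _))))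
  have h3 := zc hM.mem.sol (h1.trans ZM) ((hS.pg.inf_left _).of_le h1) (h1.trans cZ) h2
  have h4 : 𝒵(pCoreOf 2 M) ≤ 𝒞[x] :=
    b.cent (mP.inf (norm_cent mP.nA)) ((pcore_pGrp 2 M).inf_left _)
      (hx.trans (norm_inf (pcore_norm _ _) (norm_cent (pcore_norm _ _)))) (Or.inr (abelian_inf_cent _))
  have h5 := (le_inf h3 (h1.trans cZ)).trans h4
  rw [← cent_zpowers, ← comm_eq_bot_iff, mZ.comm_id b.1, comm_eq_bot_iff, cent_zpowers] at h5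
  exact h5

theorem Ctx.lp' (hF : F.Ctx) {L B : Subgroup X} (hL : F.Mem L) (hB : F.Ln B)
    (h : ∀ a, F.Pt a → a ∉ B → F.θ a ≤ L) : False := by
  obtain ⟨x, hx, xB⟩ := hB.exists_pt
  refine hF.lp hx hL fun e he => ?_
  refine he.mem.g3L (hx.zle.trans (abelian_iff_le_cent.1 cA)) (hx.zle.trans he.mem.nA) (he.mem.cop hx.zle)
    fun l hl => ?_
  by_cases c : l ≤ B
  · rw [Subgroup.eq_of_le_of_card_ge c (by rw [hl.2, hB.2]),
      comm_eq_bot_iff.2 (inf_le_right.trans (cent_anti ((Subgroup.zpowers_le).2 xB)))]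
    exact bot_le
  · obtain ⟨y, yl, yB⟩ := SetLike.not_le_iff_exists.1 c
    have hy : F.Pt y := ⟨hl.1 yl, fun e => yB (e ▸ B.one_mem)⟩
    exact (Subgroup.commutator_mono ((he.mem.le_T.trans (T_le hy yl)).trans (h y hy yB)) le_rfl).trans
      (hL.comm_le hx)

theorem exists_ln_ge {B : Subgroup X} (h : B < F.A) : ∃ l, F.Ln l ∧ B ≤ l := by
  obtain ⟨L, h1, h2, h3⟩ := exists_index_prime_of_lt pA h
  exact ⟨L, ln_of_index h2.1 h3, h1⟩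

theorem Ctx.not_noPC (hF : F.Ctx) (hN : F.NoPC) : False := by
  have case1 : (∀ a, F.Pt a → ∃ V, F.Mem V ∧ IsPGrp 2 V ∧ V ≠ ⊥ ∧ F.θ a ≤ 𝒩(V)) → False := fun h => by
    obtain ⟨a, ha⟩ := SF.exists_pt (F := F)
    obtain ⟨V, mV, pV, V0, -⟩ := h a ha
    obtain ⟨S, hS, VS⟩ := mV.exists_maxQ pV
    obtain ⟨Z, B, d, h2⟩ := hS.exists_ZD (ne_bot_mono VS V0)
    exact hN _ _ _ _ d (d.case1' hF h2 h)
  have badV : ∀ x, F.Bad x → ∃ V, F.Mem V ∧ IsPGrp 2 V ∧ V ≠ ⊥ ∧ F.θ x ≤ 𝒩(V) := fun x b => by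
    obtain ⟨M, hM, hx⟩ := b.1.mem.exists_maxM
    exact ⟨_, hM.mem.pcore _, pcore_pGrp 2 M, b.two hF hM hx, hx.trans (pcore_norm _ _)⟩
  by_cases hg : ∃ t a U, F.Gd t a U
  swap
  · exact case1 fun a ha => badV a ⟨ha, fun t U g => hg ⟨t, a, U, g⟩⟩
  obtain ⟨t, a, U, g⟩ := hg
  obtain ⟨L, hL, hU⟩ := (hF.nt U g.mem g.ne).exists_maxM
  have gb : ∀ e, F.Pt e → F.θ e ≤ L ∨ F.Bad e := fun e he => by
    by_cases h : ∃ s V, F.Gd s e V
    · obtain ⟨s, V, g'⟩ := h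
      obtain ⟨M, hM, hV⟩ := (hF.nt V g'.mem g'.ne).exists_maxM
      rw [← g.unique g' hF hN hL hU hM hV]
      exact Or.inl ((he.mem.le_NT g'.n).trans hV)
    · exact Or.inr ⟨he, fun s V g' => h ⟨s, V, g'⟩⟩
  by_cases h2 : pCoreOf 2 L = ⊥
  swap
  · exact case1 fun e he => (gb e he).elim
      (fun h => ⟨_, hL.mem.pcore _, pcore_pGrp 2 L, h2, h.trans (pcore_norm _ _)⟩) (badV e)
  obtain ⟨x, hx, hxL⟩ := hF.not_all hL.mem
  obtain ⟨V, mV, pV, V0, -⟩ := badV x ((gb x hx).resolve_left hxL)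
  obtain ⟨S, hS, VS⟩ := mV.exists_maxQ pV
  have S0 := ne_bot_mono VS V0
  by_cases hA : F.A ≤ 𝒞(𝒵(S))
  swap
  · obtain ⟨B, hB, hle⟩ := exists_ln_ge (F := F) (B := F.A ⊓ 𝒞(𝒵(S))) (inf_lt_left.2 hA)
    exact hF.lp' hL.mem hB fun e he eB => (gb e he).resolve_right fun b =>
      eB (hle ⟨he.1, mem_cent_iff_le_cent_singleton.2 (b.centZ hF hS)⟩)
  obtain ⟨Z, B, d, -⟩ := hS.exists_ZD S0
  have cA : Z ≤ 𝒞(F.A) := (le_inf d.le (le_cent_symm d.cS)).trans (le_cent_symm hA)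
  have nX := d.nS_of_cent hF cA
  have mG := hF.G_mem hS S0
  have G0 : F.G 2 S ≠ ⊥ := fun e => hN _ _ _ _ d (d.pc_of_G hF nX e)
  obtain ⟨M, hM, hG⟩ := (hF.nt _ mG G0).exists_maxM
  have GM : F.G 2 S ≤ M := (mG.le_NT Subgroup.le_normalizer).trans hG
  have KM : F.K0 Z ≤ M := ((d.K0_mem hF).le_NT (d.K0_norm hF cA)).trans hG
  have UL : U ≤ L := (g.mem.le_NT Subgroup.le_normalizer).trans hU
  have t2 : t ≠ 2 := fun e => g.ne (le_bot_iff.1 (h2 ▸ e ▸ g.le_core hL.mem UL))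
  have UM : U ≤ M := by
    refine g.le_Y.trans (iSup₂_le fun l hl => le_trans ?_ ((d.Δ_le_G' hF hl cA).trans ?_))
    · exact le_iInf₂ fun b hb => (Δ_le hb.1 hb.2).trans (pcore_mono_pi (compl_sub t2) _)
    · rw [← d.G_eq hF cA]; exact GM
  have ZL : Z ≤ L := (((le_inf le_rfl cA).trans d.mem.le_C).trans (mem_C.le_NT g.nC)).trans hU
  have e : M = L := by
    refine hF.ben hM hL g.ne (g.le_core hM.mem UM) (g.le_core hL.mem UL)
      (((hM.mem.inf (norm_norm g.mem.nA)).le_NT inf_le_right).trans hU) (g.core_ne hF hN hL hU)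
      fun r _ _ => ?_
    by_cases r2 : r = 2
    · rw [r2, h2]; exact bot_le
    have pR : IsPiGrp {2}ᶜ (pCoreOf r L) := (pcore_pGrp r L).mono (compl_sub r2)
    have nR : Z ≤ 𝒩(pCoreOf r L) := ZL.trans (pcore_norm _ _)
    refine (d.le_comm_sup pR nR).trans (sup_le ((d.comm_le_Xs hF (hL.mem.pcore _) pR nR).trans ?_) ?_)
    · exact ((d.Xs_mem hF).le_G (d.Xs_pi hF) nX).trans GM
    · exact (ZD.le_K0 ((hL.mem.pcore _).inf (norm_cent d.nA)) inf_le_right).trans KM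
  subst e
  have SM : S ≤ M := d.S_le_K0.trans KM
  have eG : F.G 2 S = pPrimeCoreOf 2 M := le_antisymm
    (le_core_of_sylow_norm hM.mem.sol (hS.sylow Nat.prime_two hM.mem SM) GM (hF.G_pi hS S0) (G_nS _ _))
    ((hM.mem.pcore _).le_G (pcore_piGrp _ _) (SM.trans (pcore_norm _ _)))
  have h1 : ∀ e, F.Pt e → F.θ e ≤ 𝒩(F.G 2 S ⊓ 𝒞[e]) := fun e he => by
    rcases gb e he with h | h
    · exact norm_inf (eG ▸ h.trans (pcore_norm _ _)) (norm_of_le he.cent)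
    · obtain ⟨V, mV, pV, V0, nV⟩ := badV e h
      exact d.G_pt hF nX he mV pV V0 nV
  have h3 : ∀ l, F.Ln l → F.T l ≤ 𝒩(F.G 2 S) := fun l hl => by
    have e : F.G 2 S = ⨆ (a : X) (_ : F.Pt a ∧ a ∈ l), F.G 2 S ⊓ 𝒞[a] :=
      le_antisymm (mG.genl hl fun a ha al =>
        le_iSup₂_of_le (f := fun (a : X) (_ : F.Pt a ∧ a ∈ l) => F.G 2 S ⊓ 𝒞[a]) a ⟨ha, al⟩ le_rfl)
        (iSup₂_le fun _ _ => inf_le_left)
    rw [e]
    exact norm_iSup fun a => norm_iSup fun ha => (T_le ha.1 ha.2).trans (h1 a ha.1)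
  exact hF.not_norm mG G0 fun a ha => ha.mem.genL fun l hl => ha.mem.le_T.trans (h3 l hl)

end SF

theorem realizeEqns_Sg2Bad : True := by
  have := @CA.Sg2.SF.Bad.eq_1.{0}
  have := @CA.Sg2.SF.Bad.eq_def.{0}
  have := @CA.Sg2.SF.Bad.congr_simp.{0}
  trivial

end CA.Sg2
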