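/-
The `2`-signalizer functor theorem for all ranks, given `NoPC`.
Owner: helper1.
-/
import Cfsg.Agent.Sg2.Bad
import Cfsg.Agent.FT

set_option autoImplicit false

namespace CA.Sg2

open Cfsg CA.FG CA.BG

universe u

theorem complete_pc (pc : ∀ (X : Type u) [Group X] [Finite X] (F : SF X), F.Ctx → F.NoPC) {X : Type u} [Group X] [Finite X]
    (A : Subgroup X) (θ : X → Subgroup X) (ab : IsElementaryAbelian 2 A) (h8 : 8 ≤ Nat.card A)
    (odd : ∀ a ∈ A, a ≠ 1 → Odd (Nat.card (θ a))) (cent : ∀ a ∈ A, a ≠ 1 → θ a ≤ Subgroup.centralizer {a})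
    (nrm : ∀ a ∈ A, a ≠ 1 → A ≤ Subgroup.normalizer (θ a : Set X))
    (bal : ∀ a ∈ A, a ≠ 1 → ∀ b ∈ A, b ≠ 1 → θ a ⊓ Subgroup.centralizer {b} ≤ θ b) :
    ∃ W : Subgroup X, Odd (Nat.card W) ∧ ∀ a ∈ A, a ≠ 1 → θ a ≤ W := by
  have hp := Nat.prime_two
  obtain ⟨n, hn⟩ := abelem_card hp ab
  obtain ⟨A₀, h₀, c₀⟩ := exists_le_card_eq_pow (H := A) (k := 3) hp
    (by rw [hn] at h8 ⊢; exact pow_dvd_pow _ ((Nat.pow_le_pow_iff_right hp.one_lt).1 h8))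
  have pp : ∀ a ∈ A, a ≠ 1 → IsPiGrp {2}ᶜ (θ a) := fun a ha h1 =>
    (piGrp_compl_singleton_iff hp).2 (Nat.two_dvd_ne_zero.2 (Nat.odd_iff.1 (odd a ha h1)))
  let F : SF X :=
    { p := 2, A := A₀, θ := θ, hp := hp, p2 := rfl, ab := abelem_of_le ab h₀, card := c₀
      sol := fun a ha h1 => CA.FT.odd_sol (odd a (h₀ ha) h1)
      pp := fun a ha => pp a (h₀ ha)
      cent := fun a ha => cent a (h₀ ha)
      nrm := fun a ha h1 => h₀.trans (nrm a (h₀ ha) h1)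
      bal := fun a ha h1 b hb => bal a (h₀ ha) h1 b (h₀ hb) }
  obtain ⟨M, hM, h⟩ := complete_of (fun X _ _ F hF => hF.not_noPC (pc X F hF)) F
  refine ⟨M, Nat.odd_iff.2 (Nat.two_dvd_ne_zero.1 ((piGrp_compl_singleton_iff hp).1 hM.pp)), fun a ha h1 =>
    coprime_abelian_gen_cent1_le (A := A₀) (SF.cA (F := F)) (SF.ncA (F := F)) (h₀.trans (nrm a ha h1))
      ((SF.pA (F := F)).coprime (pp a ha h1)).symm fun b hb b1 => (bal a ha h1 b (h₀ hb) b1).trans (h b ⟨hb, b1⟩)⟩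

end CA.Sg2
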