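/-
The `2`-signalizer functor theorem.
-/
import Cfsg.Agent.Sg2.Rank
import Cfsg.Agent.BG.I06

set_option autoImplicit false

namespace CA.Sg2

open Cfsg CA.FG CA.BG

universe u

namespace SF

variable {X : Type u} [Group X] [Finite X] {F : SF X}

theorem Ctx.noPC (hF : F.Ctx) : F.NoPC := by
  intro q S Z B d hP
  have hq := d.hq
  have odd : ∀ M, F.Mem M → Odd (Nat.card M) := fun M hM => by
    have := hM.pp
    rw [F.p2] at this
    exact Nat.coprime_two_right.1 ((piNat_compl_singleton_iff_coprime Nat.prime_two).1 this)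
  have key : ∀ M, F.MaxM M → F.C ≤ M → Z ≤ M → M ≤ 𝒩(𝒵(puigOf S)) := fun M hM hC hZ => by
    have syl := hF.sylow hq d.max hM.mem hC
    have nT : F.A ≤ 𝒩(S ⊓ M) := norm_inf d.max.mem.nA hM.mem.nA
    have ch := center_Puig_char (S ⊓ M)
    have n := (Puig_center_normal hq (odd M hM.mem) hM.mem.sol syl (hP M hM hC hZ)).2
    have U0 : 𝒵(puigOf (S ⊓ M)) ≠ ⊥ := fun e =>
      ne_bot_mono (le_inf d.le hZ) d.ne (trivg_center_Puig_pgroup (d.max.pg.inf_left M) e)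
    have mU := d.max.mem.of_le (ch.1.trans inf_le_left) (ch.norm nT)
    have e : S ⊓ M = S := nilpotent_sub_norm d.max.pg.nil inf_le_left (le_inf inf_le_left
      (hF.le_of_norm hM mU U0 n (d.max.mem.inf (norm_norm nT)) (ch.norm inf_le_right)))
    rwa [e] at n
  have ch := center_Puig_char S
  have U0 : 𝒵(puigOf S) ≠ ⊥ := fun e => d.S0 (trivg_center_Puig_pgroup d.max.pg e)
  have mU := d.max.mem.of_le ch.1 (ch.norm d.max.mem.nA)
  refine hF.nc ⟨_, hF.nt _ mU U0, fun a ha => ha.mem.genL fun l hl => ?_⟩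
  obtain ⟨c, hc, cl, cB⟩ := hl.meet d.ln
  obtain ⟨M, hM, h⟩ := hc.mem.exists_maxM
  exact (ha.mem.le_T.trans (T_le hc cl)).trans (hc.mem.le_NT
    (h.trans (key M hM ((C_le hc).trans h) ((d.le_θ hc cB).trans h))))

end SF

/-- the `2`-signalizer functor theorem -/
theorem complete {X : Type u} [Group X] [Finite X]
    (A : Subgroup X) (θ : X → Subgroup X) (ab : IsElementaryAbelian 2 A) (h8 : 8 ≤ Nat.card A)
    (odd : ∀ a ∈ A, a ≠ 1 → Odd (Nat.card (θ a))) (cent : ∀ a ∈ A, a ≠ 1 → θ a ≤ Subgroup.centralizer {a})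
    (nrm : ∀ a ∈ A, a ≠ 1 → A ≤ Subgroup.normalizer (θ a : Set X))
    (bal : ∀ a ∈ A, a ≠ 1 → ∀ b ∈ A, b ≠ 1 → θ a ⊓ Subgroup.centralizer {b} ≤ θ b) :
    ∃ W : Subgroup X, Odd (Nat.card W) ∧ ∀ a ∈ A, a ≠ 1 → θ a ≤ W :=
  complete_pc (fun _ _ _ _ hF => hF.noPC) A θ ab h8 odd cent nrm bal

end CA.Sg2
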