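/-
The fixed point lemma for an involution.
Owner: helper1.
-/
import Cfsg.Agent.Sig.Lem1
import Cfsg.Agent.GW.B2

set_option autoImplicit false

namespace CA.Sg2

open Cfsg CA.FG CA.BG
open CA.Sig hiding fl_ab fl_sol fl

universe u

variable {G : Type u} [Group G] [Finite G] {π : Set ℕ} {p q : ℕ}

theorem fl_ab {V Y R : Subgroup G} {t : ℕ} (hp : p.Prime) (p2 : p = 2) (hR : Nat.card R = p)
    (_ : IsPGrp t Y) (_ : t ≠ p) (_ : R ≤ 𝒩(Y)) (eY : ⁅Y, R⁆ = Y)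
    (_ : t ≠ 2 ∨ IsMulCommutative Y) (_ : IsMulCommutative V) (_ : IsPiGrp {t}ᶜ V)
    (_ : IsPiGrp {p}ᶜ V) (nVY : Y ≤ 𝒩(V)) (nVR : R ≤ 𝒩(V)) (h : V ⊓ 𝒞(R) = ⊥) : Y ≤ 𝒞(V) := by
  subst p2
  obtain ⟨u, hu, u1⟩ := exists_mem_ne_one (H := R) fun e => by simp [e] at hR
  have e : Subgroup.zpowers u = R := by
    have := (Subgroup.eq_bot_or_eq_top_of_prime_card (hp := ⟨hR ▸ hp⟩) ((Subgroup.zpowers u).subgroupOf R)).resolve_left
      fun e => u1 (congrArg Subtype.val (Subgroup.mem_bot.1 (e.le (show (⟨u, hu⟩ : R) ∈ _ from Subgroup.mem_zpowers u))))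
    exact le_antisymm (Subgroup.zpowers_le.2 hu) (Subgroup.subgroupOf_eq_top.1 this)
  have u2 : u * u = 1 := by
    rw [← pow_two, ← hR]; exact congrArg Subtype.val (pow_card_eq_one' (x := (⟨u, hu⟩ : R)))
  rw [← eY, ← e]
  exact GW.comm_le_cent_of_inv (fun y hy => GW.inv_of_fpf u2 (nVR hu) (by rwa [← cent_zpowers, e]) hy) nVY

theorem fl_sol {F Y R : Subgroup G} {t : ℕ} (hp : p.Prime) (p2 : p = 2) (hR : Nat.card R = p)
    (tY : IsPGrp t Y) (tp : t ≠ p) (nYR : R ≤ 𝒩(Y)) (eY : ⁅Y, R⁆ = Y)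
    (ht : t ≠ 2 ∨ IsMulCommutative Y) (sol : Group.IsSolvable F) (tF : IsPiGrp {t}ᶜ F)
    (pF : IsPiGrp {p}ᶜ F) (nFY : Y ≤ 𝒩(F)) (nFR : R ≤ 𝒩(F)) (h : F ⊓ 𝒞(R) ≤ 𝒞(Y)) :
    Y ≤ 𝒞(F) := by
  have pR : IsPGrp p R := pGrp_of_card_eq hp hR
  have hV : ⁅F, Y⁆ ≤ F := comm_le_left nFY
  have eV : ⁅⁅F, Y⁆, Y⁆ = ⁅F, Y⁆ := coprime_commGid nFY (tY.coprime tF).symm (Or.inl sol)
  have nVY : Y ≤ 𝒩(⁅F, Y⁆) := le_sup_right.trans (comm_normalIn_sup F Y).2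
  have nVR : R ≤ 𝒩(⁅F, Y⁆) := norm_comm nFR nYR
  generalize hVdef : ⁅F, Y⁆ = V at hV eV nVY nVR
  have solV := sol_of_le sol hV
  have tV := tF.of_le hV
  have pV := pF.of_le hV
  have nD : V ≤ 𝒩(⁅V, V⁆) := (der_normalIn V).2
  have nDY : Y ≤ 𝒩(⁅V, V⁆) := norm_comm nVY nVY
  have nDR : R ≤ 𝒩(⁅V, V⁆) := norm_comm nVR nVR
  have cV : IsMulCommutative (V /ₛ ⁅V, V⁆) := (quot_abelian_iff nD).2 le_rfl
  have eV' : ⁅V /ₛ ⁅V, V⁆, Y /ₛ ⁅V, V⁆⁆ = V /ₛ ⁅V, V⁆ := by rw [← quot_comm nD nDY, eV]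
  have coR : (Nat.card V).Coprime (Nat.card R) := (pR.coprime pV).symm
  have key : Y /ₛ ⁅V, V⁆ ≤ 𝒞(V /ₛ ⁅V, V⁆) := by
    refine fl_ab hp p2 ?_ (tY.quot _) tp (quot_norm _ nYR) (by rw [← quot_comm (nDY) nDR, eY])
      (ht.imp_right (abelian_quot _)) cV (tV.quot _) (pV.quot _) (quot_norm _ nVY) (quot_norm _ nVR) ?_
    · rw [card_quot_of_inf_eq_bot nDR (inf_eq_bot_of_cop
        (coR.coprime_dvd_left (Subgroup.card_dvd_of_le (der_normalIn V).1))), hR]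
    · rw [← coprime_quotient_cent (der_normalIn V).1 nDR coR (Or.inl solV), ← le_bot_iff,
        ← coprime_abel_cent_TI (quot_norm _ nVY) (coprime_quot _ (tY.coprime tV).symm) cV, eV']
      exact (quot_mono _ (le_inf inf_le_left ((inf_le_inf_right _ hV).trans h))).trans
        (quot_inf_cent_le _ _)
  rw [quot_cent_iff' nDY nD, eV] at key
  have : V = ⊥ := by
    by_contra h0
    exact absurd key (not_le_of_gt (der_lt_of_sol solV h0))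
  rw [← comm_eq_bot_iff', hVdef, this]

/-- FL. -/
theorem fl {H X R : Subgroup G} {t : ℕ} (hp : p.Prime) (p2 : p = 2) (hR : Nat.card R = p)
    (sol : Group.IsSolvable H) (pH : IsPiGrp {p}ᶜ H) (nHR : R ≤ 𝒩(H)) (hX : X ≤ H) (tX : IsPGrp t X)
    (nXR : R ≤ 𝒩(X)) (nXC : H ⊓ 𝒞(R) ≤ 𝒩(X)) (ht : t ≠ 2 ∨ IsMulCommutative X) :
    ⁅X, R⁆ ≤ pCoreOf t H := by
  by_cases h0 : X = ⊥
  · rw [h0, Subgroup.commutator_bot_left]; exact bot_le
  have tp : t ≠ p := fun e => h0 ((e ▸ tX).eq_bot (pH.of_le hX))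
  have pR : IsPGrp p R := pGrp_of_card_eq hp hR
  have hY : ⁅X, R⁆ ≤ X := comm_le_left nXR
  have eY : ⁅⁅X, R⁆, R⁆ = ⁅X, R⁆ := coprime_commGid nXR (tX.coprime_of_ne pR tp) (Or.inr pR.sol)
  have nYR : R ≤ 𝒩(⁅X, R⁆) := le_sup_right.trans (comm_normalIn_sup X R).2
  have nYC : H ⊓ 𝒞(R) ≤ 𝒩(⁅X, R⁆) := norm_comm nXC (norm_of_cent inf_le_right)
  have tY := tX.of_le hY
  have ht' : t ≠ 2 ∨ IsMulCommutative ↥⁅X, R⁆ := ht.imp_right fun c => abelian_of_le c hY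
  have hYH := hY.trans hX
  generalize ⁅X, R⁆ = Y at *
  have nO := pcore_norm {t} H
  have nOR : R ≤ 𝒩(pCoreOf t H) := norm_pcore _ nHR
  have coR : (Nat.card H).Coprime (Nat.card R) := (pR.coprime pH).symm
  have hF := fitting_le (H /ₛ pCoreOf t H)
  refine le_pcore_of_cent_fit sol hYH tY (fl_sol hp p2 ?_ (tY.quot _) tp (quot_norm _ nYR)
    (by rw [← quot_comm (hYH.trans nO) nOR, eY]) (ht'.imp_right (abelian_quot _))
    (sol_of_nil (fitting_nil _)) (fit_quot_pi' _ H) ((pH.quot _).of_le hF)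
    ((quot_mono _ hYH).trans (fitting_norm _)) (norm_fitting (quot_norm _ nHR)) ?_)
  · rw [card_quot_of_inf_eq_bot nOR (inf_eq_bot_of_cop
      (coR.coprime_dvd_left (Subgroup.card_dvd_of_le (pcore_le _ H)))), hR]
  · rw [← comm_eq_bot_iff, ← le_bot_iff, ← (tY.quot (pCoreOf t H)).inf_eq_bot (fit_quot_pi' {t} H)]
    refine le_inf (comm_le_right ?_) ((Subgroup.commutator_mono inf_le_left le_rfl).trans
      (comm_le_left ((quot_mono _ hYH).trans (fitting_norm _))))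
    refine (inf_le_inf_right _ hF).trans ?_
    rw [← coprime_quotient_cent (pcore_le _ H) nOR coR (Or.inl sol)]
    exact quot_norm _ nYC

end CA.Sg2
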